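import Mathlib
import Cfsg.Agent.Lib.Helper90.MinSU.Setup5

/-! [oE1a] core: the stabiliser in `K` of a bad isotropic vector has order 216. -/

set_option autoImplicit false

namespace Cfsg.Agent.Lib.Helper90.MinSU.O

open Matrix Cfsg.Agent.Lib.Helper13 Cfsg.Agent.Lib.Helper5 Cfsg.Agent.Lib.Helper57.RootSU
  Cfsg.Agent.Lib.Helper83.MinSU Cfsg.Agent.Lib.Helper81.MinSU

variable {F : Type*} [Field F] [Fintype F]

lemma two_eq_zero4 (hF : Fintype.card F = 2 ^ 2) : (2 : F) = 0 := by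
  have h := FiniteField.cast_card_eq_zero F
  rw [hF] at h
  have h2 : (2 : F) ^ 2 = 0 := by exact_mod_cast h
  exact pow_eq_zero_iff (two_ne_zero) |>.mp h2

lemma one_skew4 (hF : Fintype.card F = 2 ^ 2) : (1 : F) + 1 ^ 2 = 0 := by
  have := two_eq_zero4 hF
  linear_combination this

lemma card_units4 (hF : Fintype.card F = 2 ^ 2) : Nat.card Fˣ = 3 := by
  classical
  rw [Nat.card_eq_fintype_card, Fintype.card_units, hF]
  norm_num

/-- `rho 0 1 ∉ pull K g e` when `ut (g e) 1 ∉ K`. -/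
lemma rho_not_mem_pull (hF : Fintype.card F = 2 ^ 2) (e : Fin 5 → F) (L : ULoc 3 F 2 (Pe 2 e))
    (hee : Cfsg.hermForm 5 F 2 e e = 0)
    (hrho0 : ∀ a : F, a + a ^ 2 = 0 → ((L.rho 0 a : Pe 2 e) : Cfsg.SU 5 F 2) = ut hF e a)
    (K : Subgroup (Cfsg.SU 5 F 2)) (g : Cfsg.SU 5 F 2) (hvK : ut hF (g.1.1 *ᵥ e) 1 ∉ K) :
    L.rho 0 1 ∉ pull K g e := by
  rw [mem_pull, hrho0 1 (one_skew4 hF), ut_conj hF g hee (one_skew4 hF)]
  exact hvK

/-- the stabiliser of `g e` in `K` corresponds to `pull K g e ⊓ ker lam`. -/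
lemma card_stab_eq (e : Fin 5 → F) (L : ULoc 3 F 2 (Pe 2 e)) (he0 : e ≠ 0)
    (hlam : ∀ g : Pe 2 e, (g : Cfsg.SU 5 F 2).1.1 *ᵥ e = (L.lam g : F) • e)
    (K : Subgroup (Cfsg.SU 5 F 2)) (g : Cfsg.SU 5 F 2) :
    Nat.card {k : K // (k : Cfsg.SU 5 F 2).1.1 *ᵥ (g.1.1 *ᵥ e) = g.1.1 *ᵥ e}
      = Nat.card {s : pull K g e // L.lam (s : Pe 2 e) = 1} := by
  have hfix : ∀ k : Cfsg.SU 5 F 2, k.1.1 *ᵥ (g.1.1 *ᵥ e) = g.1.1 *ᵥ e →
      (g⁻¹ * k * g).1.1 *ᵥ e = e := by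
    intro k hk
    rw [SU_mul_mulVec, SU_mul_mulVec, hk, SU_inv_mulVec_mulVec]
  have hfix' : ∀ k : Cfsg.SU 5 F 2, k.1.1 *ᵥ e = e → (k⁻¹).1.1 *ᵥ e = e := by
    intro k hk
    conv_lhs => rw [← hk]
    rw [SU_inv_mulVec_mulVec]
  have hPe : ∀ k : Cfsg.SU 5 F 2, k.1.1 *ᵥ e = e → k ∈ Pe 2 e := by
    intro k hk
    apply mem_Pe_of_map
    · rw [hk]; exact Submodule.mem_span_singleton_self e
    · rw [hfix' k hk]; exact Submodule.mem_span_singleton_self e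
  have hl1 : ∀ p : Pe 2 e, (p : Cfsg.SU 5 F 2).1.1 *ᵥ e = e ↔ L.lam p = 1 := by
    intro p
    rw [hlam p]
    constructor
    · intro h
      have h2 : ((L.lam p : F) - 1) • e = 0 := by rw [sub_smul, h, one_smul, sub_self]
      rcases smul_eq_zero.mp h2 with h3 | h3
      · exact Units.ext (by simpa using sub_eq_zero.mp h3)
      · exact absurd h3 he0
    · intro h
      rw [h]; simp
  refine Nat.card_congr
    { toFun := fun k => ⟨⟨⟨g⁻¹ * (k.1 : Cfsg.SU 5 F 2) * g, hPe _ (hfix _ k.2)⟩, ?_⟩, ?_⟩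
      invFun := fun s => ⟨⟨g * ((s.1 : Pe 2 e) : Cfsg.SU 5 F 2) * g⁻¹, (mem_pull K g e _).mp s.1.2⟩, ?_⟩
      left_inv := ?_
      right_inv := ?_ }
  · rw [mem_pull]
    have : g * (g⁻¹ * (k.1 : Cfsg.SU 5 F 2) * g) * g⁻¹ = k.1 := by group
    show g * (g⁻¹ * (k.1 : Cfsg.SU 5 F 2) * g) * g⁻¹ ∈ K
    rw [this]; exact k.1.2
  · exact (hl1 _).mp (hfix _ k.2)
  · have h := (hl1 _).mpr s.2
    show (g * ((s.1 : Pe 2 e) : Cfsg.SU 5 F 2) * g⁻¹).1.1 *ᵥ (g.1.1 *ᵥ e) = g.1.1 *ᵥ e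
    rw [SU_mul_mulVec, SU_mul_mulVec, SU_inv_mulVec_mulVec, h]
  · intro k
    apply Subtype.ext; apply Subtype.ext
    show g * (g⁻¹ * (k.1 : Cfsg.SU 5 F 2) * g) * g⁻¹ = k.1
    group
  · intro s
    apply Subtype.ext; apply Subtype.ext; apply Subtype.ext
    show g⁻¹ * (g * ((s.1 : Pe 2 e) : Cfsg.SU 5 F 2) * g⁻¹) * g = _
    group

/-- `|S| = |Lam S| * |S ∩ ker lam|`. -/
lemma card_eq_lam_mul {P : Type*} [Group P] [Finite P] {m q : ℕ} (L : ULoc m F q P)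
    (S : Subgroup P) :
    Nat.card S = Nat.card (L.Lam S) * Nat.card {s : S // L.lam (s : P) = 1} := by
  have h1 := Subgroup.card_eq_card_quotient_mul_card_subgroup (L.lam.comp S.subtype).ker
  have h2 : Nat.card (S ⧸ (L.lam.comp S.subtype).ker) = Nat.card (L.Lam S) := by
    rw [Nat.card_congr (QuotientGroup.quotientKerEquivRange (L.lam.comp S.subtype)).toEquiv]
    unfold ULoc.Lam
    rw [MonoidHom.range_comp, Subgroup.range_subtype]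
  rw [h1, h2]
  rfl

theorem bad_stab_core (hF : Fintype.card F = 2 ^ 2) (e : Fin 5 → F) (L : ULoc 3 F 2 (Pe 2 e))
    (he0 : e ≠ 0) (hee : Cfsg.hermForm 5 F 2 e e = 0)
    (hrho0 : ∀ a : F, a + a ^ 2 = 0 → ((L.rho 0 a : Pe 2 e) : Cfsg.SU 5 F 2) = ut hF e a)
    (hlam : ∀ g : Pe 2 e, (g : Cfsg.SU 5 F 2).1.1 *ᵥ e = (L.lam g : F) • e)
    (hidx : (Pe 2 e).index = NO 2 5)
    (htwo : ∀ S : Subgroup (Pe 2 e), L.rho 0 1 ∉ S → NO 2 (3 + 2) ≤ S.index ∨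
      (L.Bb hF S = ⊥ ∧ L.S1 hF S = ⊤ ∧ L.Lam S = ⊤ ∧ S.index = 2 ^ (2 * 3 + 1)))
    (K : Subgroup (Cfsg.SU 5 F 2))
    (hK : K.index < 165) (v : Fin 5 → F) (hv : v ≠ 0) (hvv : Cfsg.hermForm 5 F 2 v v = 0)
    (hvK : ut hF v 1 ∉ K) :
    Nat.card {k : K // (k : Cfsg.SU 5 F 2).1.1 *ᵥ v = v} = 216 := by
  obtain ⟨g, rfl⟩ := exists_su_map hF (by norm_num) e v he0 hv hee hvv
  rw [card_stab_eq e L he0 hlam K g]
  have hA := rho_not_mem_pull hF e L hee hrho0 K g hvK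
  have hle := index_pull_le K g e
  rcases htwo _ hA with h | ⟨-, -, hLam, hi⟩
  · rw [show (3 + 2 : ℕ) = 5 from rfl, NO_2_5] at h
    omega
  · have h1 := card_eq_lam_mul L (pull K g e)
    rw [hLam, Nat.card_congr Subgroup.topEquiv.toEquiv, card_units4 hF] at h1
    have h2 := (pull K g e).card_mul_index
    have h3 := (Pe 2 e).card_mul_index
    rw [hidx, NO_2_5, card_SU5 hF] at h3
    rw [hi] at h2
    norm_num at h2
    omega

end Cfsg.Agent.Lib.Helper90.MinSU.O
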