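import Mathlib
import Cfsg.Agent.Lib.Helper90.MinSU.E1aCore
import Cfsg.Agent.Lib.Helper22.MinSU.oLOC2
import Cfsg.Agent.Lib.Helper22.MinSU.oTWO
import Cfsg.Agent.Lib.Helper1.MinSU.oPEI
import Cfsg.Agent.Lib.Helper57.MinSU.oWB3

/-! [oE1a] (S2151 farm of helper83). -/

set_option autoImplicit false

namespace Cfsg.Agent.Lib.Helper90.MinSU.O

open Matrix Cfsg.Agent.Lib.Helper13 Cfsg.Agent.Lib.Helper5 Cfsg.Agent.Lib.Helper57.RootSU
  Cfsg.Agent.Lib.Helper83.MinSU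

variable {F : Type*} [Field F] [Fintype F]

/-- [oE1a] -/
theorem bad_stab (hF : Fintype.card F = 2 ^ 2) (K : Subgroup (Cfsg.SU 5 F 2))
    (hK : K.index < 165) (v : Fin 5 → F) (hv : v ≠ 0) (hvv : Cfsg.hermForm 5 F 2 v v = 0)
    (hvK : ut hF v 1 ∉ K) :
    Nat.card {k : K // (k : Cfsg.SU 5 F 2).1.1 *ᵥ v = v} = 216 := by
  obtain ⟨e, L, he0, hee, hrho0, -, hlam, -, -, -⟩ :=
    Cfsg.Agent.Lib.Helper22.MinSU.O.exists_loc2 hF 3 (by norm_num)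
  exact bad_stab_core hF e L he0 hee hrho0 hlam
    (Cfsg.Agent.Lib.Helper1.MinSU.O.index_Pe hF (by norm_num) (by decide) e he0 hee)
    (fun S hA => Cfsg.Agent.Lib.Helper22.MinSU.O.local_two L S hF (by norm_num) (by decide)
      (Cfsg.Agent.Lib.Helper57.MinSU.O.wb3 hF) hA)
    K hK v hv hvv hvK

end Cfsg.Agent.Lib.Helper90.MinSU.O
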